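import Cfsg.Agent.H559.ChevConjX
import Cfsg.Agent.H493.PGF4

/-!
# Elements of order `r` with `x ~ x^q`, `x ~ x⁻¹` in `F4(q)` (helper559)

`conj` : `r` a prime, `m` the order of `q` modulo `r`, `m ∈ [3, 4, 6, 8, 12]`.
-/

set_option autoImplicit false

namespace Cfsg.Agent.H559.ConjF4

open CoxeterSystem Cfsg Cfsg.Lie Cfsg.Lie.ChevalleyDatum
open Cfsg.Agent.ChevalleyStructure.CoxeterGeom Cfsg.Agent.ChevalleyStructure.CoxeterGeomTypes
open Cfsg.Agent.Tits.Roots Cfsg.Agent.Tits.Core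
open Cfsg.Agent.H129.WData Cfsg.Agent.Nodes.RGDChev
open Cfsg.Agent.H493.PGTorus Cfsg.Agent.H493.PGCyc Cfsg.Agent.H493.PGF4 Cfsg.Agent.H559.ChevConjX

universe u

/-- an element of order 12 -/
def wc : CoxeterMatrix.F₄.Group := CoxeterMatrix.F₄.toCoxeterSystem.wordProd (chain12.map Prod.fst)

theorem wc1 : ∀ j, rep CoxeterMatrix.F₄.toCoxeterSystem hp.isCartan wc (sr j) = hd chain12 j :=
  fun j => chain_rep hp CoxeterMatrix.F₄.toCoxeterSystem hA chain12_ok j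

/-- a power -/
def N2 : Mat 4 := ![![1, 1, 1, 1], ![1, 2, 1, 0], ![-2, -4, -2, -1], ![0, 2, 1, 1]]

theorem wc2 : ∀ j, rep CoxeterMatrix.F₄.toCoxeterSystem hp.isCartan (wc ^ 2) (sr j) = N2 j := by
  have h := rep_mul hp CoxeterMatrix.F₄.toCoxeterSystem wc1 wc1 (C := N2) (by decide +kernel)
  rw [← pow_two] at h
  exact h

/-- a power -/
def N3 : Mat 4 := ![![1, 2, 1, 0], ![0, 1, 1, 1], ![-2, -4, -3, -2], ![2, 2, 2, 1]]

theorem wc3 : ∀ j, rep CoxeterMatrix.F₄.toCoxeterSystem hp.isCartan (wc ^ 3) (sr j) = N3 j := by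
  have h := rep_mul hp CoxeterMatrix.F₄.toCoxeterSystem wc2 wc1 (C := N3) (by decide +kernel)
  rw [← pow_succ] at h
  exact h

/-- a power -/
def N6 : Mat 4 := ![![-1, 0, 0, 0], ![0, -1, 0, 0], ![0, 0, -1, 0], ![0, 0, 0, -1]]

theorem wc6 : ∀ j, rep CoxeterMatrix.F₄.toCoxeterSystem hp.isCartan (wc ^ 6) (sr j) = N6 j := by
  have h := rep_mul hp CoxeterMatrix.F₄.toCoxeterSystem wc3 wc3 (C := N6) (by decide +kernel)
  rw [← pow_add] at h
  exact h

theorem wcneg : ∀ j, rep CoxeterMatrix.F₄.toCoxeterSystem hp.isCartan (wc ^ 6) (sr j) = - sr j :=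
  neg_of_mat hp CoxeterMatrix.F₄.toCoxeterSystem wc6 (by decide +kernel)

/-- partial products of an element with characteristic polynomial divisible by the cyclotomic polynomial 3 -/
def chain3 : List (Fin 4 × Mat 4) := [
    (0, ![![0, 1, 0, 0], ![-1, -1, 0, 0], ![2, 2, 1, 0], ![0, 0, 0, 1]]),
    (1, ![![1, 1, 0, 0], ![0, -1, 0, 0], ![0, 2, 1, 0], ![0, 0, 0, 1]])]

theorem chain3_ok : ChainOK Am chain3 := by decide +kernel

/-- coefficients of the eigenvector -/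
def V3 : Fin 2 → Fin 4 → ℤ := ![![-1, 0, 0, 0], ![0, 1, 0, 0]]

/-- the functional -/
def U3 : Fin 4 → ℤ := ![-1, 0, 0, 0]

theorem eig3 : EigOK (hd chain3) c3 V3 U3 := by decide +kernel

theorem conj3 {F : Type u} [Field F] [Finite F] {r : ℕ} (hr : r.Prime) (h : (r : ℤ) ∣ pv c3 (Nat.card F)) :
    ∃ x u u' : ↥(chevF4.group F), orderOf x = r ∧ u * x * u⁻¹ = x ^ Nat.card F ∧ u' * x * u'⁻¹ = x⁻¹ := by
  have := finW
  exact conj_pow_inv hp CoxeterMatrix.F₄.toCoxeterSystem H129.TorusChar.invC_F4 one_ne_zero isPhi_F4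
    (chain_rep hp CoxeterMatrix.F₄.toCoxeterSystem hA chain3_ok) wcneg eig3 hr
    (fun h => hr.one_lt.ne' (Nat.dvd_one.1 h)) h

/-- partial products of an element with characteristic polynomial divisible by the cyclotomic polynomial 4 -/
def chain4 : List (Fin 4 × Mat 4) := [
    (1, ![![1, 1, 0, 0], ![0, 1, 1, 0], ![0, -2, -1, 0], ![0, 2, 1, 1]]),
    (2, ![![1, 0, 0, 0], ![0, 1, 1, 0], ![0, 0, -1, 0], ![0, 0, 1, 1]])]

theorem chain4_ok : ChainOK Am chain4 := by decide +kernel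

/-- coefficients of the eigenvector -/
def V4 : Fin 2 → Fin 4 → ℤ := ![![0, 1, 1, 0], ![0, 1, 0, 0]]

/-- the functional -/
def U4 : Fin 4 → ℤ := ![0, 0, 1, 0]

theorem eig4 : EigOK (hd chain4) c4 V4 U4 := by decide +kernel

theorem conj4 {F : Type u} [Field F] [Finite F] {r : ℕ} (hr : r.Prime) (h : (r : ℤ) ∣ pv c4 (Nat.card F)) :
    ∃ x u u' : ↥(chevF4.group F), orderOf x = r ∧ u * x * u⁻¹ = x ^ Nat.card F ∧ u' * x * u'⁻¹ = x⁻¹ := by
  have := finW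
  exact conj_pow_inv hp CoxeterMatrix.F₄.toCoxeterSystem H129.TorusChar.invC_F4 one_ne_zero isPhi_F4
    (chain_rep hp CoxeterMatrix.F₄.toCoxeterSystem hA chain4_ok) wcneg eig4 hr
    (fun h => hr.one_lt.ne' (Nat.dvd_one.1 h)) h

/-- partial products of an element with characteristic polynomial divisible by the cyclotomic polynomial 6 -/
def chain6 : List (Fin 4 × Mat 4) := [
    (0, ![![0, 1, 0, 0], ![1, 1, 1, 0], ![-2, -2, -1, 0], ![2, 2, 1, 1]]),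
    (1, ![![1, 1, 0, 0], ![0, 1, 1, 0], ![0, -2, -1, 0], ![0, 2, 1, 1]]),
    (2, ![![1, 0, 0, 0], ![0, 1, 1, 0], ![0, 0, -1, 0], ![0, 0, 1, 1]])]

theorem chain6_ok : ChainOK Am chain6 := by decide +kernel

/-- coefficients of the eigenvector -/
def V6 : Fin 2 → Fin 4 → ℤ := ![![0, 1, 1, 0], ![1, 1, 0, 0]]

/-- the functional -/
def U6 : Fin 4 → ℤ := ![-1, 1, 0, 0]

theorem eig6 : EigOK (hd chain6) c6 V6 U6 := by decide +kernel

theorem conj6 {F : Type u} [Field F] [Finite F] {r : ℕ} (hr : r.Prime) (h : (r : ℤ) ∣ pv c6 (Nat.card F)) :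
    ∃ x u u' : ↥(chevF4.group F), orderOf x = r ∧ u * x * u⁻¹ = x ^ Nat.card F ∧ u' * x * u'⁻¹ = x⁻¹ := by
  have := finW
  exact conj_pow_inv hp CoxeterMatrix.F₄.toCoxeterSystem H129.TorusChar.invC_F4 one_ne_zero isPhi_F4
    (chain_rep hp CoxeterMatrix.F₄.toCoxeterSystem hA chain6_ok) wcneg eig6 hr
    (fun h => hr.one_lt.ne' (Nat.dvd_one.1 h)) h

theorem conj8 {F : Type u} [Field F] [Finite F] {r : ℕ} (hr : r.Prime) (h : (r : ℤ) ∣ pv c8 (Nat.card F)) :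
    ∃ x u u' : ↥(chevF4.group F), orderOf x = r ∧ u * x * u⁻¹ = x ^ Nat.card F ∧ u' * x * u'⁻¹ = x⁻¹ := by
  have := finW
  exact conj_pow_inv hp CoxeterMatrix.F₄.toCoxeterSystem H129.TorusChar.invC_F4 one_ne_zero isPhi_F4
    (chain_rep hp CoxeterMatrix.F₄.toCoxeterSystem hA chain8_ok) wcneg eig8 hr
    (fun h => hr.one_lt.ne' (Nat.dvd_one.1 h)) h

theorem conj12 {F : Type u} [Field F] [Finite F] {r : ℕ} (hr : r.Prime) (h : (r : ℤ) ∣ pv c12 (Nat.card F)) :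
    ∃ x u u' : ↥(chevF4.group F), orderOf x = r ∧ u * x * u⁻¹ = x ^ Nat.card F ∧ u' * x * u'⁻¹ = x⁻¹ := by
  have := finW
  exact conj_pow_inv hp CoxeterMatrix.F₄.toCoxeterSystem H129.TorusChar.invC_F4 one_ne_zero isPhi_F4
    (chain_rep hp CoxeterMatrix.F₄.toCoxeterSystem hA chain12_ok) wcneg eig12 hr
    (fun h => hr.one_lt.ne' (Nat.dvd_one.1 h)) h

/-- **`x ~ x^q`, `x ~ x⁻¹`, `m` the order of `q` modulo `r`.** -/
theorem conj {F : Type u} [Field F] [Finite F] {r m : ℕ} (hr : r.Prime)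
    (hm : orderOf ((Nat.card F : ℕ) : ZMod r) = m) (h : m ∈ [3, 4, 6, 8, 12]) :
    ∃ x u u' : ↥(chevF4.group F), orderOf x = r ∧ u * x * u⁻¹ = x ^ Nat.card F ∧ u' * x * u'⁻¹ = x⁻¹ := by
  have : Fact r.Prime := ⟨hr⟩
  simp only [List.mem_cons, List.not_mem_nil, or_false] at h
  rcases h with rfl | rfl | rfl | rfl | rfl
  · exact conj3 hr (Ord.dvd3 hm)
  · exact conj4 hr (Ord.dvd4 hm)
  · exact conj6 hr (Ord.dvd6 hm)
  · exact conj8 hr (Ord.dvd8 hm)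
  · exact conj12 hr (Ord.dvd12 hm)

end Cfsg.Agent.H559.ConjF4
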