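import Cfsg.Agent.H559.ChevConjX
import Cfsg.Agent.H493.PGG2

/-!
# Elements of order `r` with `x ~ x^q`, `x ~ x⁻¹` in `G2(q)` (helper559)

`conj` : `r` a prime, `m` the order of `q` modulo `r`, `m ∈ [3, 6]`.
-/

set_option autoImplicit false

namespace Cfsg.Agent.H559.ConjG2

open CoxeterSystem Cfsg Cfsg.Lie Cfsg.Lie.ChevalleyDatum
open Cfsg.Agent.ChevalleyStructure.CoxeterGeom Cfsg.Agent.ChevalleyStructure.CoxeterGeomTypes
open Cfsg.Agent.Tits.Roots Cfsg.Agent.Tits.Core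
open Cfsg.Agent.H129.WData Cfsg.Agent.Nodes.RGDChev
open Cfsg.Agent.H493.PGTorus Cfsg.Agent.H493.PGCyc Cfsg.Agent.H493.PGG2 Cfsg.Agent.H559.ChevConjX

universe u

/-- an element of order 6 -/
def wc : CoxeterMatrix.G₂.Group := CoxeterMatrix.G₂.toCoxeterSystem.wordProd (chain6.map Prod.fst)

theorem wc1 : ∀ j, rep CoxeterMatrix.G₂.toCoxeterSystem hp.isCartan wc (sr j) = hd chain6 j :=
  fun j => chain_rep hp CoxeterMatrix.G₂.toCoxeterSystem hA chain6_ok j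

/-- a power -/
def N2 : Mat 2 := ![![1, 1], ![-3, -2]]

theorem wc2 : ∀ j, rep CoxeterMatrix.G₂.toCoxeterSystem hp.isCartan (wc ^ 2) (sr j) = N2 j := by
  have h := rep_mul hp CoxeterMatrix.G₂.toCoxeterSystem wc1 wc1 (C := N2) (by decide +kernel)
  rw [← pow_two] at h
  exact h

/-- a power -/
def N3 : Mat 2 := ![![-1, 0], ![0, -1]]

theorem wc3 : ∀ j, rep CoxeterMatrix.G₂.toCoxeterSystem hp.isCartan (wc ^ 3) (sr j) = N3 j := by
  have h := rep_mul hp CoxeterMatrix.G₂.toCoxeterSystem wc2 wc1 (C := N3) (by decide +kernel)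
  rw [← pow_succ] at h
  exact h

theorem wcneg : ∀ j, rep CoxeterMatrix.G₂.toCoxeterSystem hp.isCartan (wc ^ 3) (sr j) = - sr j :=
  neg_of_mat hp CoxeterMatrix.G₂.toCoxeterSystem wc3 (by decide +kernel)

theorem conj3 {F : Type u} [Field F] [Finite F] {r : ℕ} (hr : r.Prime) (h : (r : ℤ) ∣ pv c3 (Nat.card F)) :
    ∃ x u u' : ↥(chevG2.group F), orderOf x = r ∧ u * x * u⁻¹ = x ^ Nat.card F ∧ u' * x * u'⁻¹ = x⁻¹ := by
  have := finW
  exact conj_pow_inv hp CoxeterMatrix.G₂.toCoxeterSystem H129.TorusChar.invC_G2 one_ne_zero isPhi_G2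
    (chain_rep hp CoxeterMatrix.G₂.toCoxeterSystem hA chain3_ok) wcneg eig3 hr
    (fun h => hr.one_lt.ne' (Nat.dvd_one.1 h)) h

theorem conj6 {F : Type u} [Field F] [Finite F] {r : ℕ} (hr : r.Prime) (h : (r : ℤ) ∣ pv c6 (Nat.card F)) :
    ∃ x u u' : ↥(chevG2.group F), orderOf x = r ∧ u * x * u⁻¹ = x ^ Nat.card F ∧ u' * x * u'⁻¹ = x⁻¹ := by
  have := finW
  exact conj_pow_inv hp CoxeterMatrix.G₂.toCoxeterSystem H129.TorusChar.invC_G2 one_ne_zero isPhi_G2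
    (chain_rep hp CoxeterMatrix.G₂.toCoxeterSystem hA chain6_ok) wcneg eig6 hr
    (fun h => hr.one_lt.ne' (Nat.dvd_one.1 h)) h

/-- **`x ~ x^q`, `x ~ x⁻¹`, `m` the order of `q` modulo `r`.** -/
theorem conj {F : Type u} [Field F] [Finite F] {r m : ℕ} (hr : r.Prime)
    (hm : orderOf ((Nat.card F : ℕ) : ZMod r) = m) (h : m ∈ [3, 6]) :
    ∃ x u u' : ↥(chevG2.group F), orderOf x = r ∧ u * x * u⁻¹ = x ^ Nat.card F ∧ u' * x * u'⁻¹ = x⁻¹ := by
  have : Fact r.Prime := ⟨hr⟩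
  simp only [List.mem_cons, List.not_mem_nil, or_false] at h
  rcases h with rfl | rfl
  · exact conj3 hr (Ord.dvd3 hm)
  · exact conj6 hr (Ord.dvd6 hm)

end Cfsg.Agent.H559.ConjG2
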