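import Mathlib

/-!
# Odd order automorphisms of 2-transitive groups

If `G` acts 2-transitively on `Ω`, `α` is an automorphism of `G` of odd order and `A` is a 0-1
matrix with `A (g x) (α g y) = A x y` all of whose row sums are a number `k` coprime to `#Ω`, then
`k = 1` or `k = #Ω - 1`, and `α` is induced by a permutation of `Ω`.
-/

set_option autoImplicit false

namespace Cfsg.Agent.H559.TwoTrans

open Matrix

/-- number theory at the heart of the argument -/
theorem num_core {n k N c d lam : ℤ} {t : ℕ} (hn : 2 ≤ n) (hk : 0 < k) (hkn : 2 * k ≤ n)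
    (hco : IsCoprime k n) (hN0 : 0 ≤ N) (hNk : N ≤ k) (h1 : c ^ 2 = N ^ (2 * t + 1))
    (h2 : c + d * n = k ^ (2 * t + 1)) (h3 : N + lam * n = k ^ 2) : k = 1 := by
  have hNne : N ≠ 0 := by
    intro h0
    have hd : n ∣ k ^ 2 := ⟨lam, by rw [← h3, h0]; ring⟩
    have := (hco.pow_left (m := 2)).isUnit_of_dvd' hd dvd_rfl
    rw [Int.isUnit_iff] at this
    omega
  have hNpos : 0 < N := lt_of_le_of_ne hN0 (Ne.symm hNne)
  have hNt : N ^ t ≠ 0 := pow_ne_zero _ hNne
  have hdv : (N ^ t) ^ 2 ∣ c ^ 2 := ⟨N, by rw [h1]; ring⟩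
  have hdv2 : N ^ t ∣ c := (Int.pow_dvd_pow_iff (by norm_num)).1 hdv
  obtain ⟨e, he⟩ := hdv2
  have he2 : e ^ 2 = N := by
    have : (N ^ t) ^ 2 * e ^ 2 = (N ^ t) ^ 2 * N := by
      calc (N ^ t) ^ 2 * e ^ 2 = c ^ 2 := by rw [he]; ring
        _ = (N ^ t) ^ 2 * N := by rw [h1]; ring
    exact mul_left_cancel₀ (pow_ne_zero _ hNt) this
  have hcoN : IsCoprime N n := by
    have h4 : IsCoprime (k ^ 2) n := hco.pow_left
    have : N = k ^ 2 + n * (-lam) := by rw [← h3]; ring
    rw [this]
    exact h4.add_mul_left_left _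
  have hcoNt : IsCoprime (N ^ t) n := hcoN.pow_left
  have hmod : n ∣ k ^ (2 * t + 1) - k * N ^ t := by
    have : k ^ 2 - N ∣ (k ^ 2) ^ t - N ^ t := sub_dvd_pow_sub_pow _ _ t
    have h5 : n ∣ k ^ 2 - N := ⟨lam, by rw [← h3]; ring⟩
    have h6 := h5.trans this
    have : k ^ (2 * t + 1) - k * N ^ t = k * ((k ^ 2) ^ t - N ^ t) := by ring
    rw [this]
    exact h6.mul_left _
  have hd2 : n ∣ N ^ t * (k - e) := by
    have h7 : n ∣ k ^ (2 * t + 1) - c := ⟨d, by rw [← h2]; ring⟩
    have h8 := dvd_sub h7 hmod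
    have : k ^ (2 * t + 1) - c - (k ^ (2 * t + 1) - k * N ^ t) = N ^ t * (k - e) := by
      rw [he]; ring
    rwa [this] at h8
  have hd3 : n ∣ k - e := (IsCoprime.symm hcoNt).dvd_of_dvd_mul_left hd2
  have hee : e ≤ e ^ 2 := by nlinarith [sq_nonneg e, sq_nonneg (e - 1), Int.le_self_sq e]
  have hee' : -e ≤ e ^ 2 := by
    have := Int.le_self_sq (-e)
    nlinarith
  obtain ⟨w, hw⟩ := hd3
  have hw0 : 0 ≤ n * w := by rw [← hw]; linarith
  have hwn : n * w ≤ n := by rw [← hw]; linarith
  have hw1 : 0 ≤ w := by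
    by_contra hneg
    push Not at hneg
    nlinarith
  have hw2 : w ≤ 1 := by
    by_contra hneg
    push Not at hneg
    nlinarith
  have hw3 : w = 0 ∨ w = 1 := by omega
  rcases hw3 with hw3 | hw3
  · have hek : e = k := by rw [hw3] at hw; linarith
    rw [hek] at he2
    nlinarith
  · have hek : e = -k := by rw [hw3] at hw; linarith
    rw [hek] at he2
    nlinarith

set_option linter.unusedSectionVars false

section Mat

variable {G Ω : Type*} [Group G] [MulAction G Ω] [Fintype Ω] [DecidableEq Ω]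

/-- the all-one matrix -/
def J (Ω : Type*) : Matrix Ω Ω ℤ := Matrix.of fun _ _ => 1

@[simp] theorem J_apply (x y : Ω) : J Ω x y = 1 := rfl

theorem J_mul_J : J Ω * J Ω = (Fintype.card Ω : ℤ) • J Ω := by
  ext x y
  simp [Matrix.mul_apply, Matrix.smul_apply]

/-- a matrix invariant under a 2-transitive group lies in the span of `1` and `J` -/
theorem span_of_inv (h2 : MulAction.IsMultiplyPretransitive G Ω 2) (M : Matrix Ω Ω ℤ)
    (hM : ∀ (g : G) (x y : Ω), M (g • x) (g • y) = M x y) :
    ∃ c d : ℤ, M = c • (1 : Matrix Ω Ω ℤ) + d • J Ω := by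
  have hpre : MulAction.IsPretransitive G Ω :=
    MulAction.isPretransitive_of_is_two_pretransitive
  rw [MulAction.is_two_pretransitive_iff] at h2
  by_cases hne : ∃ a b : Ω, a ≠ b
  · obtain ⟨a, b, hab⟩ := hne
    refine ⟨M a a - M a b, M a b, ?_⟩
    ext x y
    by_cases hxy : x = y
    · subst hxy
      obtain ⟨g, rfl⟩ := MulAction.exists_smul_eq G a x
      simp only [hM, Matrix.add_apply, Matrix.smul_apply, smul_eq_mul, J_apply,
        Matrix.one_apply_eq]
      ring
    · obtain ⟨g, hg1, hg2⟩ := h2 hab hxy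
      rw [← hg1, ← hg2, hM]
      have : g • a ≠ g • b := by rw [hg1, hg2]; exact hxy
      simp only [Matrix.add_apply, Matrix.smul_apply, smul_eq_mul, J_apply,
        Matrix.one_apply_ne this]
      ring
  · push Not at hne
    by_cases hemp : Nonempty Ω
    · obtain ⟨a⟩ := hemp
      refine ⟨M a a, 0, ?_⟩
      ext x y
      rw [hne x a, hne y a]
      simp only [Matrix.add_apply, Matrix.smul_apply, smul_eq_mul, J_apply,
        Matrix.one_apply_eq]
      ring
    · refine ⟨0, 0, ?_⟩
      ext x y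
      exact (hemp ⟨x⟩).elim

variable (α : MulAut G) (A : Matrix Ω Ω ℤ)

theorem pow_inv (hA : ∀ (g : G) (x y : Ω), A (g • x) (α g • y) = A x y) (j : ℕ) :
    ∀ (g : G) (x y : Ω), (A ^ j) (g • x) ((α ^ j) g • y) = (A ^ j) x y := by
  induction j with
  | zero =>
    intro g x y
    simp [Matrix.one_apply]
  | succ j ih =>
    intro g x y
    rw [pow_succ, Matrix.mul_apply, Matrix.mul_apply]
    rw [← Equiv.sum_comp (MulAction.toPerm ((α ^ j) g))]
    refine Finset.sum_congr rfl fun z _ => ?_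
    rw [MulAction.toPerm_apply, ih]
    congr 1
    have : (α ^ (j + 1)) g = α ((α ^ j) g) := by rw [pow_succ']; rfl
    rw [this, hA]

theorem mul_transpose_inv (hA : ∀ (g : G) (x y : Ω), A (g • x) (α g • y) = A x y) :
    ∀ (g : G) (x y : Ω), (A * Aᵀ) (g • x) (g • y) = (A * Aᵀ) x y := by
  intro g x y
  rw [Matrix.mul_apply, Matrix.mul_apply]
  rw [← Equiv.sum_comp (MulAction.toPerm (α g))]
  refine Finset.sum_congr rfl fun z _ => ?_
  rw [MulAction.toPerm_apply, Matrix.transpose_apply, Matrix.transpose_apply, hA, hA]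

theorem mul_J {k : ℤ} (hr : ∀ x, ∑ y, A x y = k) : A * J Ω = k • J Ω := by
  ext x y
  simp [Matrix.mul_apply, hr]

theorem transpose_mul_J {k : ℤ} (hc : ∀ y, ∑ x, A x y = k) : Aᵀ * J Ω = k • J Ω := by
  ext x y
  simp [Matrix.mul_apply, hc]

theorem J_mul_transpose {k : ℤ} (hr : ∀ x, ∑ y, A x y = k) : J Ω * Aᵀ = k • J Ω := by
  ext x y
  simp [Matrix.mul_apply, hr]

theorem pow_mul_J {k : ℤ} (hr : ∀ x, ∑ y, A x y = k) (j : ℕ) : A ^ j * J Ω = k ^ j • J Ω := by
  induction j with
  | zero => simp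
  | succ j ih =>
    rw [pow_succ, Matrix.mul_assoc, mul_J A hr, Matrix.mul_smul, ih, smul_smul, pow_succ, mul_comm]

theorem pow_mul_pow_transpose {k N lam : ℤ} (hr : ∀ x, ∑ y, A x y = k)
    (hN : A * Aᵀ = N • (1 : Matrix Ω Ω ℤ) + lam • J Ω) (j : ℕ) :
    ∃ e : ℤ, A ^ j * (A ^ j)ᵀ = N ^ j • (1 : Matrix Ω Ω ℤ) + e • J Ω := by
  induction j with
  | zero => exact ⟨0, by simp⟩
  | succ j ih =>
    obtain ⟨e, he⟩ := ih
    refine ⟨N ^ j * lam + e * k * k, ?_⟩
    have : A ^ (j + 1) * (A ^ (j + 1))ᵀ = A * (A ^ j * (A ^ j)ᵀ) * Aᵀ := by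
      rw [pow_succ', Matrix.transpose_mul]
      simp only [Matrix.mul_assoc]
    rw [this, he, Matrix.mul_add, Matrix.add_mul, Matrix.mul_smul, Matrix.mul_one,
      Matrix.smul_mul, hN, Matrix.mul_smul, mul_J A hr, Matrix.smul_mul, Matrix.smul_mul,
      J_mul_transpose A hr]
    ext x y
    simp only [Matrix.add_apply, Matrix.smul_apply, smul_eq_mul, J_apply]
    ring

/-- column sums equal row sums -/
theorem col_sum (hpre : MulAction.IsPretransitive G Ω)
    (hA : ∀ (g : G) (x y : Ω), A (g • x) (α g • y) = A x y)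
    {k : ℤ} (hr : ∀ x, ∑ y, A x y = k) : ∀ y, ∑ x, A x y = k := by
  have hinv : ∀ (g : G) (y : Ω), ∑ x, A x (g • y) = ∑ x, A x y := by
    intro g y
    rw [← Equiv.sum_comp (MulAction.toPerm (α.symm g))]
    refine Finset.sum_congr rfl fun z _ => ?_
    rw [MulAction.toPerm_apply]
    have := hA (α.symm g) z y
    rwa [show α (α.symm g) = g from α.apply_symm_apply g] at this
  intro y
  have hconst : ∀ z, ∑ x, A x z = ∑ x, A x y := by
    intro z
    obtain ⟨g, rfl⟩ := MulAction.exists_smul_eq G y z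
    exact hinv g y
  have h1 : ∑ z, ∑ x, A x z = (Fintype.card Ω : ℤ) * ∑ x, A x y := by
    rw [Finset.sum_congr rfl fun z _ => hconst z]
    simp
  have h2 : ∑ z, ∑ x, A x z = (Fintype.card Ω : ℤ) * k := by
    rw [Finset.sum_comm, Finset.sum_congr rfl fun x _ => hr x]
    simp
  have hn : (Fintype.card Ω : ℤ) ≠ 0 := by
    have : 0 < Fintype.card Ω := Fintype.card_pos_iff.2 ⟨y⟩
    exact_mod_cast this.ne'
  exact mul_left_cancel₀ hn (h1.symm.trans h2)

theorem k_eq_one (h2 : MulAction.IsMultiplyPretransitive G Ω 2)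
    (hα : Odd (orderOf α)) (h01 : ∀ x y, A x y = 0 ∨ A x y = 1)
    (hA : ∀ (g : G) (x y : Ω), A (g • x) (α g • y) = A x y)
    {k : ℤ} (hr : ∀ x, ∑ y, A x y = k) (hn : 2 ≤ Fintype.card Ω)
    (hk : 0 < k) (hkn : 2 * k ≤ Fintype.card Ω) (hco : IsCoprime k (Fintype.card Ω : ℤ)) :
    k = 1 := by
  have hpre : MulAction.IsPretransitive G Ω :=
    MulAction.isPretransitive_of_is_two_pretransitive
  obtain ⟨t, ht⟩ := hα
  have hc := col_sum α A hpre hA hr
  obtain ⟨N, lam, hN⟩ := span_of_inv h2 _ (mul_transpose_inv α A hA)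
  obtain ⟨c, d, hcd⟩ := span_of_inv (G := G) h2 (A ^ (2 * t + 1)) (by
    intro g x y
    have := pow_inv α A hA (2 * t + 1) g x y
    have h1 : α ^ (2 * t + 1) = 1 := by rw [← ht, pow_orderOf_eq_one]
    rw [h1] at this
    exact this)
  obtain ⟨e, he⟩ := pow_mul_pow_transpose A hr hN (2 * t + 1)
  obtain ⟨x, y, hxy⟩ := Fintype.exists_pair_of_one_lt_card (show 1 < Fintype.card Ω by omega)
  have h1 : c ^ 2 = N ^ (2 * t + 1) := by
    have h3 : A ^ (2 * t + 1) * (A ^ (2 * t + 1))ᵀ =
        c ^ 2 • (1 : Matrix Ω Ω ℤ) + (2 * c * d + d * d * Fintype.card Ω) • J Ω := by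
      rw [hcd, Matrix.transpose_add, Matrix.transpose_smul, Matrix.transpose_smul,
        Matrix.transpose_one]
      have hJt : (J Ω)ᵀ = J Ω := by ext a b; rfl
      rw [hJt, Matrix.add_mul, Matrix.mul_add, Matrix.mul_add, Matrix.smul_mul, Matrix.smul_mul,
        Matrix.smul_mul, Matrix.smul_mul, Matrix.one_mul, Matrix.one_mul, Matrix.mul_smul,
        Matrix.mul_smul, Matrix.mul_one, J_mul_J]
      ext a b
      simp only [Matrix.add_apply, Matrix.smul_apply, smul_eq_mul, J_apply]
      ring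
    rw [h3] at he
    have h4 := congrFun (congrFun he x) x
    have h5 := congrFun (congrFun he x) y
    simp only [Matrix.add_apply, Matrix.smul_apply, smul_eq_mul, J_apply, Matrix.one_apply_eq,
      Matrix.one_apply_ne hxy] at h4 h5
    linarith
  have h3 : c + d * (Fintype.card Ω : ℤ) = k ^ (2 * t + 1) := by
    have h4 := pow_mul_J A hr (2 * t + 1)
    rw [hcd, Matrix.add_mul, Matrix.smul_mul, Matrix.smul_mul, Matrix.one_mul, J_mul_J] at h4
    have h5 := congrFun (congrFun h4 x) x
    simp only [Matrix.add_apply, Matrix.smul_apply, smul_eq_mul, J_apply] at h5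
    linarith
  have h4 : N + lam * (Fintype.card Ω : ℤ) = k ^ 2 := by
    have h5 : A * Aᵀ * J Ω = (k ^ 2) • J Ω := by
      rw [Matrix.mul_assoc, transpose_mul_J A hc, Matrix.mul_smul, mul_J A hr, smul_smul, sq]
    rw [hN, Matrix.add_mul, Matrix.smul_mul, Matrix.smul_mul, Matrix.one_mul, J_mul_J] at h5
    have h6 := congrFun (congrFun h5 x) x
    simp only [Matrix.add_apply, Matrix.smul_apply, smul_eq_mul, J_apply] at h6
    linarith
  have h5 : N = ∑ z, A x z * (1 - A y z) := by
    have h6 := congrFun (congrFun hN x) x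
    have h7 := congrFun (congrFun hN x) y
    simp only [Matrix.add_apply, Matrix.smul_apply, smul_eq_mul, J_apply, Matrix.one_apply_eq,
      Matrix.one_apply_ne hxy, Matrix.mul_apply, Matrix.transpose_apply] at h6 h7
    have h8 : ∑ z, A x z * A x z = ∑ z, A x z := by
      refine Finset.sum_congr rfl fun z _ => ?_
      rcases h01 x z with h | h <;> rw [h] <;> rfl
    have h9 : ∑ z, A x z * (1 - A y z) = ∑ z, A x z - ∑ z, A x z * A y z := by
      rw [← Finset.sum_sub_distrib]
      refine Finset.sum_congr rfl fun z _ => by ring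
    rw [h9, ← h8]
    linarith
  have hN0 : 0 ≤ N := by
    rw [h5]
    refine Finset.sum_nonneg fun z _ => ?_
    rcases h01 x z with h | h <;> rcases h01 y z with h' | h' <;> rw [h, h'] <;> norm_num
  have hNk : N ≤ k := by
    rw [h5, ← hr x]
    refine Finset.sum_le_sum fun z _ => ?_
    rcases h01 x z with h | h <;> rcases h01 y z with h' | h' <;> rw [h, h'] <;> norm_num
  exact num_core (by exact_mod_cast hn) hk hkn hco hN0 hNk h1 h3 h4

/-- the permutation attached to a 0-1 matrix all of whose row and column sums are `1` -/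
theorem exists_perm {G Ω : Type*} [Group G] [MulAction G Ω] [Fintype Ω] [DecidableEq Ω]
    (α : MulAut G) (A : Matrix Ω Ω ℤ) (h01 : ∀ x y, A x y = 0 ∨ A x y = 1)
    (hA : ∀ (g : G) (x y : Ω), A (g • x) (α g • y) = A x y)
    (hr : ∀ x, ∑ y, A x y = 1) (hc : ∀ y, ∑ x, A x y = 1) :
    ∃ σ : Equiv.Perm Ω, ∀ (g : G) (x : Ω), σ (g • x) = α g • σ x := by
  have hex : ∀ x, ∃ y, A x y = 1 := by
    intro x
    by_contra hcon
    push Not at hcon
    have : ∑ y, A x y = 0 := Finset.sum_eq_zero fun y _ => (h01 x y).resolve_right (hcon y)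
    rw [hr] at this
    omega
  have hnn : ∀ x y, 0 ≤ A x y := by
    intro x y
    rcases h01 x y with h | h <;> rw [h] <;> norm_num
  have huniq : ∀ x y z, A x y = 1 → A x z = 1 → y = z := by
    intro x y z h1 h2
    by_contra hne
    have : A x y + A x z ≤ ∑ w, A x w := by
      rw [← Finset.sum_pair hne]
      exact Finset.sum_le_sum_of_subset_of_nonneg (Finset.subset_univ _) fun w _ _ => hnn x w
    rw [hr, h1, h2] at this
    omega
  have huniq' : ∀ x y z, A y x = 1 → A z x = 1 → y = z := by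
    intro x y z h1 h2
    by_contra hne
    have : A y x + A z x ≤ ∑ w, A w x := by
      rw [← Finset.sum_pair (f := fun w => A w x) hne]
      exact Finset.sum_le_sum_of_subset_of_nonneg (f := fun w => A w x) (Finset.subset_univ _)
        fun w _ _ => hnn w x
    rw [hc, h1, h2] at this
    omega
  choose s hs using hex
  have hinj : Function.Injective s := by
    intro x y hxy
    exact huniq' (s x) x y (hs x) (by rw [hxy]; exact hs y)
  refine ⟨Equiv.ofBijective s (Finite.injective_iff_bijective.1 hinj), fun g x => ?_⟩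
  change s (g • x) = α g • s x
  refine huniq (g • x) _ _ (hs _) ?_
  rw [hA]
  exact hs x

end Mat

/-- **Main lemma**: odd order automorphisms of 2-transitive groups, with a coprime orbit. -/
theorem core {G Ω : Type*} [Group G] [MulAction G Ω] [Fintype Ω]
    (h2 : MulAction.IsMultiplyPretransitive G Ω 2) (α : MulAut G) (hα : Odd (orderOf α))
    (o ω : Ω)
    (hk : (Nat.card (MulAction.orbit ((MulAction.stabilizer G o).map α.toMonoidHom) ω)).Coprime
      (Fintype.card Ω)) :
    (∃ σ : Equiv.Perm Ω, ∀ (g : G) (x : Ω), σ (g • x) = α g • σ x) ∧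
    (Nat.card (MulAction.orbit ((MulAction.stabilizer G o).map α.toMonoidHom) ω) = 1 ∨
      Nat.card (MulAction.orbit ((MulAction.stabilizer G o).map α.toMonoidHom) ω) =
        Fintype.card Ω - 1) := by
  classical
  have hpre : MulAction.IsPretransitive G Ω :=
    MulAction.isPretransitive_of_is_two_pretransitive
  set H := (MulAction.stabilizer G o).map α.toMonoidHom with hH
  set k := Nat.card (MulAction.orbit H ω) with hkdef
  have hkpos : 0 < k := by
    rw [hkdef]
    have : Nonempty (MulAction.orbit H ω) := ⟨⟨ω, MulAction.mem_orbit_self ω⟩⟩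
    exact Nat.card_pos
  -- the orbital
  let R : Ω → Ω → Prop := fun x y => ∃ g : G, g • o = x ∧ α g • ω = y
  have hR : ∀ (g : G) (x y : Ω), R (g • x) (α g • y) ↔ R x y := by
    intro g x y
    constructor
    · rintro ⟨h, h1, h2⟩
      refine ⟨g⁻¹ * h, ?_, ?_⟩
      · rw [mul_smul, h1, inv_smul_smul]
      · rw [map_mul, mul_smul, h2, map_inv, inv_smul_smul]
    · rintro ⟨h, rfl, rfl⟩
      exact ⟨g * h, by rw [mul_smul], by rw [map_mul, mul_smul]⟩
  have hRo : ∀ y, R o y ↔ y ∈ MulAction.orbit H ω := by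
    intro y
    constructor
    · rintro ⟨g, h1, rfl⟩
      refine ⟨⟨α g, ?_⟩, rfl⟩
      exact Subgroup.mem_map.2 ⟨g, h1, rfl⟩
    · rintro ⟨⟨h, hh⟩, rfl⟩
      obtain ⟨g, hg, hgh⟩ := Subgroup.mem_map.1 hh
      refine ⟨g, hg, ?_⟩
      have : α g = h := hgh
      rw [this]
      rfl
  let A : Matrix Ω Ω ℤ := Matrix.of fun x y => if R x y then 1 else 0
  have hAdef : ∀ x y, A x y = if R x y then 1 else 0 := fun _ _ => rfl
  have h01 : ∀ x y, A x y = 0 ∨ A x y = 1 := by
    intro x y
    rw [hAdef]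
    split_ifs
    · exact Or.inr rfl
    · exact Or.inl rfl
  have hA : ∀ (g : G) (x y : Ω), A (g • x) (α g • y) = A x y := by
    intro g x y
    rw [hAdef, hAdef]
    simp only [hR]
  have hr0 : ∑ y, A o y = (k : ℤ) := by
    simp only [hAdef, hRo]
    rw [Finset.sum_boole, hkdef, Nat.card_eq_fintype_card, ← Set.toFinset_card]
    congr 2
    ext y
    simp
  have hr : ∀ x, ∑ y, A x y = (k : ℤ) := by
    intro x
    obtain ⟨g, rfl⟩ := MulAction.exists_smul_eq G o x
    rw [← hr0, ← Equiv.sum_comp (MulAction.toPerm (α g))]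
    refine Finset.sum_congr rfl fun y _ => ?_
    rw [MulAction.toPerm_apply, hA]
  have hkle : k ≤ Fintype.card Ω := by
    rw [hkdef, Nat.card_eq_fintype_card]
    exact Fintype.card_subtype_le _
  rcases Nat.lt_or_ge (Fintype.card Ω) 2 with hlt | hge
  · -- the trivial case
    have h1 : Fintype.card Ω = 1 := by omega
    have hsub : Subsingleton Ω := Fintype.card_le_one_iff_subsingleton.1 h1.le
    refine ⟨⟨1, fun g x => Subsingleton.elim _ _⟩, Or.inl ?_⟩
    omega
  by_cases hle : 2 * k ≤ Fintype.card Ω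
  · have hk1 : (k : ℤ) = 1 := k_eq_one α A h2 hα h01 hA hr hge (by exact_mod_cast hkpos)
      (by exact_mod_cast hle) (Nat.isCoprime_iff_coprime.2 hk)
    have hr' := hr
    rw [hk1] at hr'
    exact ⟨exists_perm α A h01 hA hr' (col_sum α A hpre hA hr'), Or.inl (by exact_mod_cast hk1)⟩
  · -- complement
    let B : Matrix Ω Ω ℤ := Matrix.of fun x y => 1 - A x y
    have hBdef : ∀ x y, B x y = 1 - A x y := fun _ _ => rfl
    have h01' : ∀ x y, B x y = 0 ∨ B x y = 1 := by
      intro x y
      rw [hBdef]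
      rcases h01 x y with h | h <;> rw [h]
      · exact Or.inr rfl
      · exact Or.inl rfl
    have hB : ∀ (g : G) (x y : Ω), B (g • x) (α g • y) = B x y := by
      intro g x y
      rw [hBdef, hBdef, hA]
    have hrB : ∀ x, ∑ y, B x y = (Fintype.card Ω : ℤ) - k := by
      intro x
      simp only [hBdef, Finset.sum_sub_distrib, hr]
      simp
    have hkne : k ≠ Fintype.card Ω := by
      intro h
      rw [h] at hk
      rw [Nat.coprime_self] at hk
      omega
    have hk1 : (Fintype.card Ω : ℤ) - k = 1 := by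
      refine k_eq_one α B h2 hα h01' hB hrB hge ?_ ?_ ?_
      · have : k < Fintype.card Ω := lt_of_le_of_ne hkle hkne
        have : (k : ℤ) < Fintype.card Ω := by exact_mod_cast this
        linarith
      · push Not at hle
        have : (Fintype.card Ω : ℤ) < 2 * k := by exact_mod_cast hle
        linarith
      · have h1 : IsCoprime (k : ℤ) (Fintype.card Ω : ℤ) := Nat.isCoprime_iff_coprime.2 hk
        have h3 : (Fintype.card Ω : ℤ) - k = -k + (Fintype.card Ω : ℤ) * 1 := by ring
        rw [h3]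
        exact (h1.neg_left).add_mul_left_left _
    rw [hk1] at hrB
    exact ⟨exists_perm α B h01' hB hrB (col_sum α B hpre hB hrB), Or.inr (by omega)⟩

end Cfsg.Agent.H559.TwoTrans
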