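import Cfsg.Agent.H559.TwoTransAut

/-!
# Automorphisms of permutation groups induced by permutations
-/

set_option autoImplicit false

namespace Cfsg.Agent.H559.TwoTrans

variable {Ω : Type*} [Fintype Ω] (G : Subgroup (Equiv.Perm Ω)) (α : G ≃* G)
  (σ : Equiv.Perm Ω)

omit [Fintype Ω] in
theorem conj_eq (hσ : ∀ (g : G) (x : Ω), σ (g • x) = α g • σ x) :
    ∀ g : G, ((α g : G) : Equiv.Perm Ω) = σ * (g : Equiv.Perm Ω) * σ⁻¹ := by
  intro g
  ext x
  have h1 := hσ g (σ⁻¹ x)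
  have h2 : σ (σ⁻¹ x) = x := by simp
  rw [h2] at h1
  exact h1.symm

omit [Fintype Ω] in
theorem mem_normalizer (hσ : ∀ (g : G) (x : Ω), σ (g • x) = α g • σ x) :
    σ ∈ Subgroup.normalizer (G : Set (Equiv.Perm Ω)) := by
  have h := conj_eq G α σ hσ
  rw [Subgroup.mem_normalizer_iff]
  intro g
  constructor
  · intro hg
    rw [← h ⟨g, hg⟩]
    exact (α ⟨g, hg⟩).2
  · intro hg
    have h1 := h (α.symm ⟨σ * g * σ⁻¹, hg⟩)
    rw [α.apply_symm_apply] at h1
    have h2 : g = (α.symm ⟨σ * g * σ⁻¹, hg⟩ : Equiv.Perm Ω) := by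
      have : σ * g * σ⁻¹ = σ * (α.symm ⟨σ * g * σ⁻¹, hg⟩ : Equiv.Perm Ω) * σ⁻¹ := h1
      exact mul_left_cancel (mul_right_cancel this)
    rw [h2]
    exact (α.symm ⟨σ * g * σ⁻¹, hg⟩).2

theorem exists_perm_of_fixed (htr : MulAction.IsPretransitive G Ω) (o : Ω) (ω : Ω)
    (hω : ∀ g ∈ (MulAction.stabilizer G o).map α.toMonoidHom, g • ω = ω) :
    ∃ σ : Equiv.Perm Ω, ∀ (g : G) (x : Ω), σ (g • x) = α g • σ x := by
  classical
  have hex : ∀ x : Ω, ∃ g : G, g • o = x := fun x => MulAction.exists_smul_eq G o x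
  choose s hs using hex
  have hwd : ∀ g h : G, g • o = h • o → α g • ω = α h • ω := by
    intro g h hgh
    have h1 : h⁻¹ * g ∈ MulAction.stabilizer G o := by
      rw [MulAction.mem_stabilizer_iff, mul_smul, hgh, inv_smul_smul]
    have h2 := hω (α (h⁻¹ * g)) (Subgroup.mem_map.2 ⟨_, h1, rfl⟩)
    rw [map_mul, map_inv, mul_smul, inv_smul_eq_iff] at h2
    exact h2
  let f : Ω → Ω := fun x => α (s x) • ω
  have hf : ∀ (g : G) (x : Ω), f (g • x) = α g • f x := by
    intro g x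
    change α (s (g • x)) • ω = α g • α (s x) • ω
    rw [← mul_smul, ← map_mul]
    refine hwd _ _ ?_
    rw [hs, mul_smul, hs]
  have hsurj : Function.Surjective f := by
    intro y
    obtain ⟨g, rfl⟩ := MulAction.exists_smul_eq G ω y
    refine ⟨α.symm g • s (s o • o) • o, ?_⟩
    rw [hf, α.apply_symm_apply, hs, hs]
    congr 1
    change α (s o) • ω = ω
    have := hwd (s o) 1 (by rw [hs, one_smul])
    rw [this, map_one, one_smul]
  exact ⟨Equiv.ofBijective f (Finite.surjective_iff_bijective.1 hsurj), hf⟩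

end Cfsg.Agent.H559.TwoTrans
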